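import Cfsg.Agent.H865.L5.Base
import Cfsg.Agent.S1065

/-!
# S5923 / S5924, piece A7: `GT k` is `E₈(3)` (helper130)

* `exists_GT_equiv`, `finite_GT`, `card_GT`, `not_dvd_GT`.
-/

set_option autoImplicit false
set_option linter.unusedSectionVars false

namespace Cfsg.Agent.H130.L5

open CoxeterSystem Subgroup Cfsg Cfsg.Lie Cfsg.Lie.ChevalleyDatum
open Cfsg.Agent.ChevalleyStructure Cfsg.Agent.ChevalleyStructure.Elts Cfsg.Agent.ChevalleyStructure.CoxeterGeom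
  Cfsg.Agent.ChevalleyStructure.CoxeterGeomTypes Cfsg.Agent.ChevalleyStructure.NPerm
open Cfsg.Agent.Tits.Roots Cfsg.Agent.Tits.Core Cfsg.Agent.Nodes Cfsg.Agent.Nodes.SubComb Cfsg.Agent.Nodes.Reps
  Cfsg.Agent.Nodes.BNOf Cfsg.Agent.Nodes.RGDChev Cfsg.Agent.Nodes.Bruhat Cfsg.Agent.Nodes.Coroot
open Cfsg.Agent.KFacts.RgdField Cfsg.Agent.KFacts.RgdChevCoord Cfsg.Agent.BpExc.TorCent Cfsg.Agent.BpExc.TorChev
open Cfsg.Agent.GpExc.Field Cfsg.Agent.BpExc.Tow Cfsg.Agent.BpExc.TowChev Cfsg.Agent.BpExc.Fr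
  Cfsg.Agent.BpExc.LangFr Cfsg.Agent.BpExc.FamField Cfsg.Agent.BpExc.FamInst Cfsg.Agent.H129.TorusChar
  Cfsg.Agent.H795.LangT Cfsg.Agent.BpExc.FamExt Cfsg.Agent.BpExc.FamUntw Cfsg.Agent.H378.TorDual Cfsg.Agent.H378.TorChar
  Cfsg.Agent.H378.TorFin Cfsg.Agent.H378.RankOne Cfsg.Agent.H378.RootTor Cfsg.Agent.H865.EE Cfsg.Agent.H865.L5
  Cfsg.Agent.H123.ExcZ

attribute [local irreducible] w8

/-- `𝔽₃ → k` -/
noncomputable def f3 (k : Type) [Field k] [CharP k 3] : ZMod 3 →+* k := ZMod.castHom (dvd_refl 3) k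

section

variable {k : Type} [Field k] [CharP k 3] [IsAlgClosed k] [PerfectRing k 3]

theorem sg_apply (y : ↥(chevE8.group k)) : sg k y = n0 k * phi chevE8 k 3 1 y * (n0 k)⁻¹ := rfl

/-- an element `z` with `z (GT k) z⁻¹ = E₈(3)` -/
theorem exists_GT_conj : ∃ z : ↥(chevE8.group k),
    (GT k).map (MulAut.conj z).toMonoidHom = (emb tp8.inList (f3 k)).range := by
  obtain ⟨z, hz⟩ := lang' tp8 3 one_pos (n0 k)
  have hz' : phi chevE8 k 3 1 z = z * n0 k := by rw [← hz]; group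
  have hcard : Nat.card (ZMod 3) = 3 ^ 1 := by simp
  refine ⟨z, ?_⟩
  apply le_antisymm
  · rintro _ ⟨y, hy, rfl⟩
    exact fix_mem tp8 (f3 k) 3 hcard invC_E8 (fix_of_tau 3 hz hy)
  · rintro _ ⟨x, rfl⟩
    refine ⟨z⁻¹ * emb tp8.inList (f3 k) x * z, ?_, ?_⟩
    · show sg k (z⁻¹ * emb tp8.inList (f3 k) x * z) = z⁻¹ * emb tp8.inList (f3 k) x * z
      have h2 : phi chevE8 k 3 1 (emb tp8.inList (f3 k) x) = emb tp8.inList (f3 k) x := phi_emb' tp8 (f3 k) 3 hcard x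
      rw [sg_apply, map_mul, map_mul, map_inv, hz', h2]
      group
    · show z * (z⁻¹ * emb tp8.inList (f3 k) x * z) * z⁻¹ = emb tp8.inList (f3 k) x
      group

/-- **`GT k ≃ E₈(3)`** -/
theorem exists_GT_equiv : Nonempty (↥(GT k) ≃* ↥(chevE8.group (ZMod 3))) := by
  obtain ⟨z, h1⟩ := exists_GT_conj (k := k)
  have he : Function.Injective (emb tp8.inList (f3 k)) := emb_injective tp8.inList (f3 k)
  have e1 := (GT k).equivMapOfInjective (MulAut.conj z).toMonoidHom (MulAut.conj z).injective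
  have e2 := MulEquiv.subgroupCongr h1
  have e3 := (MonoidHom.ofInjective he).symm
  exact ⟨(e1.trans e2).trans e3⟩

theorem finite_GT : Finite ↥(GT k) := by
  obtain ⟨e⟩ := exists_GT_equiv (k := k)
  exact Finite.of_equiv _ e.symm.toEquiv

theorem card_GT : Nat.card ↥(GT k) = Nat.card ↥(chevE8.group (ZMod 3)) := by
  obtain ⟨e⟩ := exists_GT_equiv (k := k)
  exact Nat.card_congr e.toEquiv

theorem not_dvd_GT : ¬ 5 ^ 6 ∣ Nat.card ↥(GT k) := by
  have h := Cfsg.Agent.S1065.result (F := ZMod 3) (ZMod.card 3)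
  rw [card_GT, h]
  norm_num

end

end Cfsg.Agent.H130.L5
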