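import Cfsg.Agent.H241.L5.Tor

/-!
# S5923 / S5924, piece A1: the torus `T5 k` of order 625 in characteristic 3 (helper130)

* `mem_T5`, `exists_zeta3`, `exists_iso3`, `card_T5`.
-/

set_option autoImplicit false
set_option linter.unusedSectionVars false

namespace Cfsg.Agent.H130.L5

open CoxeterSystem Subgroup Cfsg Cfsg.Lie Cfsg.Lie.ChevalleyDatum
open Cfsg.Agent.ChevalleyStructure Cfsg.Agent.ChevalleyStructure.Elts Cfsg.Agent.ChevalleyStructure.CoxeterGeom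
  Cfsg.Agent.ChevalleyStructure.CoxeterGeomTypes Cfsg.Agent.ChevalleyStructure.NPerm
open Cfsg.Agent.Tits.Roots Cfsg.Agent.Tits.Core Cfsg.Agent.Nodes Cfsg.Agent.Nodes.SubComb Cfsg.Agent.Nodes.Reps
  Cfsg.Agent.Nodes.BNOf Cfsg.Agent.Nodes.RGDChev Cfsg.Agent.Nodes.Bruhat Cfsg.Agent.Nodes.Coroot
open Cfsg.Agent.KFacts.RgdField Cfsg.Agent.KFacts.RgdChevCoord Cfsg.Agent.BpExc.TorCent Cfsg.Agent.BpExc.TorChev
open Cfsg.Agent.GpExc.Field Cfsg.Agent.BpExc.Tow Cfsg.Agent.BpExc.TowChev Cfsg.Agent.BpExc.Fr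
  Cfsg.Agent.BpExc.LangFr Cfsg.Agent.BpExc.FamField Cfsg.Agent.BpExc.FamInst Cfsg.Agent.H129.TorusChar
  Cfsg.Agent.H795.LangT Cfsg.Agent.BpExc.FamExt Cfsg.Agent.BpExc.FamUntw Cfsg.Agent.H378.TorDual Cfsg.Agent.H378.TorChar
  Cfsg.Agent.H378.TorFin Cfsg.Agent.H378.RankOne Cfsg.Agent.H378.RootTor Cfsg.Agent.H865.EE Cfsg.Agent.H865.L5
  Cfsg.Agent.H241.L5

attribute [local irreducible] w8

variable {k : Type} [Field k] [CharP k 3] [IsAlgClosed k] [PerfectRing k 3]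

theorem mem_GT {y : ↥(chevE8.group k)} : y ∈ GT k ↔ sg k y = y := Iff.rfl

theorem mem_T5_iff {t : ↥(chevE8.group k)} : t ∈ T5 k ↔ t ∈ TT chevE8 k ∧ sg k t = t ∧ t ^ 5 = 1 :=
  ⟨fun h => ⟨h.1.1, h.1.2, h.2⟩, fun h => ⟨⟨h.1, h.2.1⟩, h.2.2⟩⟩

/-- A1 -/
theorem mem_T5 (hk : LocFin k) {t : ↥(chevE8.group k)} :
    t ∈ T5 k ↔ t ∈ TT chevE8 k ∧ ∀ x, cX tp8 t (act w8 x) = cX tp8 t x ^ 2 := by
  constructor
  · intro h
    obtain ⟨ht, hs, h5⟩ := mem_T5_iff.1 h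
    refine ⟨ht, fun x => ?_⟩
    have h1 := cX_sg hk ht x
    rw [hs] at h1
    have h2 : cX tp8 t (act w8 x) ^ 5 = 1 := by rw [← cX_pow tp8 ht, h5, cX_one]
    rw [h1, ← pow_mul]
    calc cX tp8 t (act w8 x) = cX tp8 t (act w8 x) ^ 5 * cX tp8 t (act w8 x) := by rw [h2, one_mul]
      _ = cX tp8 t (act w8 x) ^ (3 * 2) := by ring
  · rintro ⟨ht, h⟩
    have hm := isMC_cX tp8 ht
    have h5 : ∀ x, cX tp8 t x ^ 5 = 1 := by
      intro x
      have h1 := h (act w8 x)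
      rw [w8_sq, h, hm.neg, ← pow_mul] at h1
      have h0 := hm.ne_zero x
      calc cX tp8 t x ^ 5 = cX tp8 t x ^ (2 * 2) * cX tp8 t x := by ring
        _ = 1 := by rw [← h1, inv_mul_cancel₀ h0]
    refine mem_T5_iff.2 ⟨ht, cX_inj tp8 (sg_TT hk ht) ht fun i => ?_, cX_inj tp8 (pow_mem ht 5) (one_mem _) fun i => ?_⟩
    · rw [cX_sg hk ht, h, ← pow_mul]
      calc cX tp8 t (sr i) ^ (2 * 3) = cX tp8 t (sr i) ^ 5 * cX tp8 t (sr i) := by ring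
        _ = _ := by rw [h5, one_mul]
    · rw [cX_pow tp8 ht, h5, cX_one]

theorem cX_T5_pow {t : ↥(chevE8.group k)} (ht : t ∈ T5 k) (x : Fin 8 → ℤ) : cX tp8 t x ^ 5 = 1 := by
  rw [← cX_pow tp8 (mem_T5_iff.1 ht).1, (mem_T5_iff.1 ht).2.2, cX_one]

/-- the characters of `T5 k` factor through `PP` -/
theorem cX_T5_of_PP (hk : LocFin k) {t : ↥(chevE8.group k)} (ht : t ∈ T5 k) {x y : Fin 8 → ℤ} (h : PP x = PP y) :
    cX tp8 t x = cX tp8 t y := by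
  obtain ⟨z, hz⟩ := PP_eq_iff.1 h
  obtain ⟨hT, h1⟩ := (mem_T5 hk).1 ht
  have hm := isMC_cX tp8 hT
  have h2 : x = y + (act w8 z - 2 • z) := by rw [← hz]; abel
  rw [h2, hm.add, sub_eq_add_neg, hm.add, hm.neg, hm.nsmul, h1, mul_inv_cancel₀ (pow_ne_zero _ (hm.ne_zero z)), mul_one]

theorem exists_zeta3 (k : Type) [Field k] [CharP k 3] [IsAlgClosed k] : ∃ ζ : k, IsPrimitiveRoot ζ 5 := by
  have : NeZero ((5 : ℕ) : k) := ⟨by
    intro h
    rw [CharP.cast_eq_zero_iff k 3] at h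
    omega⟩
  obtain ⟨ζ, hζ⟩ := IsAlgClosed.exists_root (Polynomial.cyclotomic 5 k) (by
    rw [Polynomial.degree_cyclotomic]
    exact_mod_cast (Nat.totient_pos.2 (by norm_num)).ne')
  exact ⟨ζ, (Polynomial.isRoot_cyclotomic_iff).1 hζ⟩

theorem zval_add {ζ : k} (hζ : IsPrimitiveRoot ζ 5) (a b : ZMod 5) : ζ ^ (a + b).val = ζ ^ a.val * ζ ^ b.val := by
  rw [← pow_add]
  exact pow_eq_pow_of_modEq (by rw [ZMod.val_add]; exact Nat.mod_modEq _ _) hζ.pow_eq_one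

theorem zval_inj {ζ : k} (hζ : IsPrimitiveRoot ζ 5) {a b : ZMod 5} (h : ζ ^ a.val = ζ ^ b.val) : a = b :=
  ZMod.val_injective 5 (hζ.pow_inj (ZMod.val_lt a) (ZMod.val_lt b) h)

/-- existence of elements of `T5 k` -/
theorem exists_T5 (hk : LocFin k) {ζ : k} (hζ : IsPrimitiveRoot ζ 5) (φ : (Fin 4 → ZMod 5) →+ ZMod 5) :
    ∃ t ∈ T5 k, ∀ x, cX tp8 t x = ζ ^ (φ (PP x)).val := by
  have hmc : IsMC (fun x : Fin 8 → ℤ => ζ ^ (φ (PP x)).val) :=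
    { zero := by
        show ζ ^ (φ (PP 0)).val = 1
        rw [map_zero, map_zero, ZMod.val_zero, pow_zero]
      add := fun x y => by
        show ζ ^ (φ (PP (x + y))).val = _
        rw [map_add, map_add, zval_add hζ] }
  obtain ⟨t, ht, h⟩ := exists_cX tp8 invC_E8 one_ne_zero hmc fun i => ⟨_, pow_one _⟩
  refine ⟨t, (mem_T5 hk).2 ⟨ht, fun x => ?_⟩, h⟩
  rw [h, h, PP_w8, map_nsmul, two_nsmul, zval_add hζ, sq]

/-- A2 : the dual space is `T5` -/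
theorem exists_iso3 (hk : LocFin k) {ζ : k} (hζ : IsPrimitiveRoot ζ 5) :
    ∃ e : Module.Dual (ZMod 5) (Fin 4 → ZMod 5) → ↥(chevE8.group k), Function.Injective e ∧ Set.range e = T5 k ∧
      (∀ φ ψ, e (φ + ψ) = e φ * e ψ) ∧ ∀ φ x, cX tp8 (e φ) x = ζ ^ (φ (PP x)).val := by
  have h1 : ∀ φ : Module.Dual (ZMod 5) (Fin 4 → ZMod 5), ∃ t ∈ T5 k, ∀ x, cX tp8 t x = ζ ^ (φ (PP x)).val := fun φ =>
    exists_T5 hk hζ φ.toAddMonoidHom
  choose f hf hc using h1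
  have hT : ∀ φ, f φ ∈ TT chevE8 k := fun φ => (mem_T5_iff.1 (hf φ)).1
  refine ⟨f, ?_, ?_, ?_, hc⟩
  · intro φ ψ h
    have h2 : ∀ c, φ c = ψ c := fun c => by
      obtain ⟨x, rfl⟩ := PP_surj c
      apply zval_inj hζ
      rw [← hc, ← hc, h]
    exact LinearMap.ext h2
  · apply Set.Subset.antisymm
    · rintro _ ⟨φ, rfl⟩
      exact hf φ
    · intro t ht
      have h1 : ∀ x, ∃ a : ZMod 5, cX tp8 t x = ζ ^ a.val := fun x => by
        obtain ⟨i, hi, h⟩ := hζ.eq_pow_of_pow_eq_one (cX_T5_pow ht x)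
        refine ⟨(i : ZMod 5), ?_⟩
        rw [ZMod.val_natCast, Nat.mod_eq_of_lt hi, h]
      choose g hg using h1
      have hgP : ∀ x y, PP x = PP y → g x = g y := fun x y h => by
        apply zval_inj hζ
        rw [← hg, ← hg, cX_T5_of_PP hk ht h]
      have hm := isMC_cX tp8 (mem_T5_iff.1 ht).1
      have hga : ∀ x y, g (x + y) = g x + g y := fun x y => by
        apply zval_inj hζ
        rw [← hg, hm.add, hg, hg, zval_add hζ]
      choose s hs using PP_surj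
      let φ0 : (Fin 4 → ZMod 5) →+ ZMod 5 := AddMonoidHom.mk' (fun c => g (s c)) (fun a b => by
        rw [← hga]
        exact hgP _ _ (by rw [hs, map_add, hs, hs]))
      have hφ : ∀ x, φ0 (PP x) = g x := fun x => hgP _ _ (hs _)
      refine ⟨φ0.toZModLinearMap 5, cX_inj tp8 (hT _) (mem_T5_iff.1 ht).1 fun i => ?_⟩
      rw [hc, AddMonoidHom.coe_toZModLinearMap, hφ, hg]
  · intro φ ψ
    refine cX_inj tp8 (hT _) (mul_mem (hT _) (hT _)) fun i => ?_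
    rw [cX_mul tp8 (hT _) (hT _), hc, hc, hc, LinearMap.add_apply, zval_add hζ]

theorem card_T5 (hk : LocFin k) : Nat.card ↥(T5 k) = 625 := by
  obtain ⟨ζ, hζ⟩ := exists_zeta3 k
  obtain ⟨e, he, hr, -⟩ := exists_iso3 hk hζ
  rw [← hr, Nat.card_range_of_injective he, Module.natCard_eq_pow_finrank (K := ZMod 5),
    Subspace.dual_finrank_eq, Module.finrank_fin_fun, Nat.card_eq_fintype_card, ZMod.card]
  norm_num

end Cfsg.Agent.H130.L5
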